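import Cfsg.Agent.ThreeTrans.Basic
import Cfsg.Prelude.Def_Solvable
set_option autoImplicit false
set_option linter.style.haveILetI false

/-!
3-transpositions in which the partners of every member generate a symmetric group of degree three.
-/

namespace CfsgLib.LocalSymThree

open CfsgLib.ThreeTrans

variable {G : Type*} [Group G]

/-- The other members commuting with `d`. -/
def P (D : Set G) (d : G) : Set G := {y | y ∈ D ∧ y ≠ d ∧ Commute d y}

/-- The hypotheses. -/
structure Setting (D : Set G) : Prop where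
  set : Cfsg.IsThreeTranspositionSet D
  closed : ∀ g : G, ∀ d ∈ D, g * d * g⁻¹ ∈ D
  loc : ∀ d ∈ D, Nonempty (↥(Subgroup.closure (P D d)) ≃* Equiv.Perm (Fin 3))

variable {D : Set G}

theorem Setting.inv (S : Setting D) {d : G} (hd : d ∈ D) : d⁻¹ = d := inv_eq S.set hd

theorem Setting.sq (S : Setting D) {d : G} (hd : d ∈ D) : d * d = 1 := mul_self S.set hd

theorem Setting.sq_assoc (S : Setting D) {d : G} (hd : d ∈ D) (x : G) : d * (d * x) = x := by
  rw [← mul_assoc, S.sq hd, one_mul]

theorem Setting.conj_mem (S : Setting D) {g d : G} (hg : g ∈ D) (hd : d ∈ D) : g * d * g ∈ D := by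
  have := S.closed g d hd
  rwa [S.inv hg] at this

theorem symm_mem {d a : G} (hd : d ∈ D) (h : a ∈ P D d) : d ∈ P D a :=
  ⟨hd, fun e => h.2.1 e.symm, h.2.2.symm⟩

theorem P_conj (S : Setting D) (g d x : G) : g * x * g⁻¹ ∈ P D (g * d * g⁻¹) ↔ x ∈ P D d := by
  constructor
  · rintro ⟨h1, h2, h3⟩
    refine ⟨?_, fun e => h2 (by rw [e]), commute_conj_iff.1 h3⟩
    simpa [mul_assoc] using S.closed g⁻¹ _ h1
  · rintro ⟨h1, h2, h3⟩
    exact ⟨S.closed g _ h1, fun e => h2 (mul_left_cancel (mul_right_cancel e)), commute_conj_iff.2 h3⟩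

theorem P_conj_congr (S : Setting D) (g : G) {x y : G} (h : P D x = P D y) :
    P D (g * x * g⁻¹) = P D (g * y * g⁻¹) := by
  ext z
  obtain ⟨z', rfl⟩ : ∃ z', g * z' * g⁻¹ = z := ⟨g⁻¹ * z * g, by group⟩
  rw [P_conj S, P_conj S, h]

/-- An element fixing `x` preserves `P x`. -/
theorem P_conj_fix (S : Setting D) {g x y : G} (hg : g * x * g⁻¹ = x) (h : y ∈ P D x) :
    g * y * g⁻¹ ∈ P D x := by
  have := (P_conj S g x y).2 h
  rwa [hg] at this

theorem perm_three_invol : ∀ x y : Equiv.Perm (Fin 3),
    (x * x = 1 ∧ y * y = 1 ∧ x ≠ 1 ∧ y ≠ 1 ∧ x * y = y * x) → x = y := by decide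

theorem perm_three_count :
    (Finset.univ.filter fun x : Equiv.Perm (Fin 3) => x * x = 1 ∧ x ≠ 1).card = 3 := by decide

/-- The members of `P d` and their images. -/
theorem exists_triple (S : Setting D) {d : G} (hd : d ∈ D) :
    (∀ a ∈ P D d, ∀ b ∈ P D d, a ≠ b → ¬ Commute a b ∧ a * b * a ≠ a ∧ a * b * a ≠ b ∧
      P D d = {a, b, a * b * a}) ∧ (∃ a ∈ P D d, ∃ b ∈ P D d, a ≠ b) := by
  classical
  obtain ⟨φ⟩ := S.loc d hd
  let img : P D d → Equiv.Perm (Fin 3) := fun y => φ ⟨y.1, Subgroup.subset_closure y.2⟩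
  have himg : Function.Injective img := fun y z h =>
    Subtype.ext (congrArg Subtype.val (φ.injective h) :)
  have hinv : ∀ y, img y * img y = 1 ∧ img y ≠ 1 := fun y => by
    refine ⟨?_, fun h => ne_one S.set y.2.1 (congrArg Subtype.val (φ.injective (h.trans φ.map_one.symm)))⟩
    rw [← map_mul, ← φ.map_one]
    exact congrArg φ (Subtype.ext (S.sq y.2.1))
  have hnc : ∀ a ∈ P D d, ∀ b ∈ P D d, a ≠ b → ¬ Commute a b := by
    intro a ha b hb hab hc
    have e := perm_three_invol (img ⟨a, ha⟩) (img ⟨b, hb⟩) ⟨(hinv _).1, (hinv _).1, (hinv _).2, (hinv _).2, (by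
      rw [← map_mul, ← map_mul]
      exact congrArg φ (Subtype.ext hc.eq))⟩
    exact hab (congrArg Subtype.val (himg e))
  refine ⟨fun a ha b hb hab => ?_, ?_⟩
  · have hn := hnc a ha b hb hab
    have hai := S.inv ha.1
    have hc : a * b * a ∈ P D d := by
      have := P_conj_fix S (g := a) (x := d) (by rw [← ha.2.2.eq, mul_inv_cancel_right]) hb
      rwa [hai] at this
    have h1 : a * b * a ≠ a := fun e => hab (by
      have h2 := congrArg (fun z => a * z * a) e
      simp only [mul_assoc, S.sq_assoc ha.1, S.sq ha.1, mul_one] at h2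
      simpa using h2.symm)
    have h2 : a * b * a ≠ b := fun e => hn (by
      have h3 : a * b = b * a := by
        calc a * b = a * b * (a * a) := by rw [S.sq ha.1, mul_one]
          _ = b * a := by rw [← mul_assoc, e]
      exact h3)
    refine ⟨hn, h1, h2, (Set.eq_of_subset_of_ncard_le ?_ ?_ ?_).symm⟩
    · rintro x (rfl | rfl | rfl) <;> assumption
    · rw [Set.ncard_eq_three.2 ⟨a, b, _, hab, h1.symm, h2.symm, rfl⟩, ← Nat.card_coe_set_eq]
      refine (Nat.card_le_card_of_injective (fun y => (⟨img y, Finset.mem_filter.2 ⟨Finset.mem_univ _, hinv y⟩⟩ :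
        (Finset.univ.filter fun x : Equiv.Perm (Fin 3) => x * x = 1 ∧ x ≠ 1))) fun y z h =>
          himg (congrArg Subtype.val h)).trans ?_
      rw [Nat.card_eq_fintype_card, Fintype.card_coe, perm_three_count]
    · haveI : Finite (P D d) := Finite.of_injective img himg
      exact Set.toFinite _
  · by_contra hno
    push Not at hno
    have hcomm : ∀ x y : Subgroup.closure (P D d), x * y = y * x := by
      haveI := Subgroup.isMulCommutative_closure (k := P D d) (fun x hx y hy => by
        rw [hno x hx y hy])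
      exact fun x y => mul_comm' x y
    have := hcomm (φ.symm (Equiv.swap 0 1)) (φ.symm (Equiv.swap 1 2))
    have h2 := congrArg φ this
    simp only [map_mul, MulEquiv.apply_symm_apply] at h2
    revert h2
    decide

theorem triple_eq (S : Setting D) {d a b : G} (hd : d ∈ D) (ha : a ∈ P D d) (hb : b ∈ P D d) (hab : a ≠ b) :
    P D d = {a, b, a * b * a} :=
  ((exists_triple S hd).1 a ha b hb hab).2.2.2

theorem triangle_free (S : Setting D) {d a b : G} (hd : d ∈ D) (ha : a ∈ P D d) (hb : b ∈ P D d) (hab : a ≠ b) :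
    ¬ Commute a b :=
  ((exists_triple S hd).1 a ha b hb hab).1

theorem exists_other (S : Setting D) {d a : G} (hd : d ∈ D) (ha : a ∈ P D d) : ∃ b ∈ P D d, b ≠ a := by
  obtain ⟨x, hx, y, hy, hxy⟩ := (exists_triple S hd).2
  by_cases h : x = a
  · exact ⟨y, hy, fun e => hxy (h.trans e.symm)⟩
  · exact ⟨x, hx, h⟩

/-- The mate identity. -/
theorem commute_mate (S : Setting D) {x a d : G} (hx : x ∈ D) (ha : a ∈ D) (hd : d ∈ D)
    (hxa : ¬ Commute x a) (hxd : ¬ Commute x d) (had : Commute a d) :
    Commute x (a * d * x * (a * d)⁻¹) := by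
  have b1 : a * x * a = x * a * x := (braid S.set hx ha hxa).symm
  have b2 : x * d * x = d * x * d := braid S.set hx hd hxd
  rw [mul_inv_rev, S.inv ha, S.inv hd, show a * d * x * (d * a) = (d * a) * x * (a * d) by rw [← had.eq],
    show (d * a) * x * (a * d) = d * (a * x * a) * d by simp only [mul_assoc]]
  set y := d * (a * x * a) * d with hy
  have hda : d * (a * d) = a := by rw [had.eq, S.sq_assoc hd]
  have e : x * y * x = y := by
    calc x * y * x = (x * d * x) * a * (x * d * x) := by rw [hy, b1]; simp only [mul_assoc]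
      _ = (d * x * d) * a * (d * x * d) := by rw [b2]
      _ = d * (x * (d * (a * d)) * x) * d := by simp only [mul_assoc]
      _ = d * (x * a * x) * d := by rw [hda]
      _ = y := by rw [hy, b1]
  calc x * y = x * y * (x * x) := by rw [S.sq hx, mul_one]
    _ = y * x := by rw [← mul_assoc, e]

/-- Two commuting members act differently on a member commuting with neither. -/
theorem conj_ne (S : Setting D) {g a b : G} (hg : g ∈ D) (ha : a ∈ D) (hb : b ∈ D)
    (hga : ¬ Commute g a) (hgb : ¬ Commute g b) (hab : a ≠ b) : a * g * a ≠ b * g * b := by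
  rw [← braid S.set hg ha hga, ← braid S.set hg hb hgb]
  exact fun e => hab (mul_left_cancel (mul_right_cancel e))

end CfsgLib.LocalSymThree
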