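import Cfsg.Agent.LocalSymThree.Basic
set_option autoImplicit false
set_option linter.style.haveILetI false

/-!
The case of the grid: two commuting symmetric groups of degree three.
-/

namespace CfsgLib.LocalSymThree

open CfsgLib.ThreeTrans

variable {G : Type*} [Group G] {D : Set G}

/-- Products of two members with the same partners. -/
def pairs (D : Set G) : Set G := {u | ∃ x ∈ D, ∃ y ∈ D, x ≠ y ∧ P D x = P D y ∧ u = x * y}

/-- The elements fixing every side. -/
def sideKernel (S : Setting D) : Subgroup G where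
  carrier := {g | ∀ z ∈ D, P D (g * z * g⁻¹) = P D z}
  one_mem' z _ := by simp
  mul_mem' {g h} hg hh z hz := by
    have := hg _ (S.closed h z hz)
    rw [hh z hz] at this
    simpa [mul_assoc] using this
  inv_mem' {g} hg z hz := by
    have := hg _ (S.closed g⁻¹ z hz)
    simp only [inv_inv, mul_assoc, mul_inv_cancel_left, mul_inv_cancel, mul_one] at this
    simpa [mul_assoc] using this.symm

theorem pair_noncommute {x y : G} (hy : y ∈ D) (hne : x ≠ y) (h : P D x = P D y) : ¬ Commute x y := fun hc => by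
  have : y ∈ P D x := ⟨hy, hne.symm, hc⟩
  rw [h] at this
  exact this.2.1 rfl

theorem pairs_le_sideKernel (S : Setting D) : pairs D ⊆ sideKernel S := by
  rintro _ ⟨x, hx, y, hy, hne, hP, rfl⟩ z hz
  have hxy := pair_noncommute hy hne hP
  rw [mul_inv_rev, S.inv hx, S.inv hy, show x * y * z * (y * x) = x * (y * z * y) * x by simp only [mul_assoc]]
  have cx : ∀ {u v : G}, u ∈ D → v ∈ D → P D (x * u * x) = P D v → P D u = P D (x * v * x) := by
    intro u v _ _ h
    have h2 := P_conj_congr S x h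
    rw [S.inv hx] at h2
    simpa [mul_assoc, S.sq_assoc hx, S.sq hx] using h2
  have xfix : x * x * x = x := by rw [S.sq hx, one_mul]
  by_cases hzy : Commute y z
  · have e1 : y * z * y = z := by rw [hzy.eq, mul_assoc, S.sq hy, mul_one]
    rw [e1]
    by_cases hzx : Commute x z
    · rw [hzx.eq, mul_assoc, S.sq hx, mul_one]
    · have hzy' : z = y := by
        by_contra hne'
        have : z ∈ P D y := ⟨hz, hne', hzy⟩
        rw [← hP] at this
        exact hzx this.2.2
      subst hzy'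
      -- both are partners of nothing new
      rw [braid S.set hx hy hxy]
      have h2 := P_conj_congr S z hP
      rw [S.inv hy, S.sq hy, one_mul] at h2
      exact h2
  · by_cases hzx : Commute x z
    · have hzx' : z = x := by
        by_contra hne'
        have : z ∈ P D x := ⟨hz, hne', hzx⟩
        rw [hP] at this
        exact hzy this.2.2
      subst hzx'
      rw [← braid S.set hx hy hxy, show z * (z * y * z) * z = y by
        simp only [mul_assoc, S.sq_assoc hx, S.sq hx, mul_one]]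
      exact hP.symm
    · -- the two moves of `z` agree
      have h2 := P_conj_congr S z hP
      rw [S.inv hz, ← braid S.set hx hz hzx, ← braid S.set hy hz hzy] at h2
      have := cx hz (S.conj_mem hy hz) h2
      exact this.symm

theorem pairs_conj (S : Setting D) (g : G) {u : G} (hu : u ∈ pairs D) : g * u * g⁻¹ ∈ pairs D := by
  obtain ⟨x, hx, y, hy, hne, hP, rfl⟩ := hu
  exact ⟨_, S.closed g x hx, _, S.closed g y hy, fun e => hne (mul_left_cancel (mul_right_cancel e)),
    P_conj_congr S g hP, by group⟩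

/-- The subgroup generated by all the products. -/
def pairGroup (D : Set G) : Subgroup G := Subgroup.closure (pairs D)

theorem pairGroup_normal (S : Setting D) : (pairGroup D).Normal := by
  constructor
  intro n hn g
  have : (pairGroup D).map (MulAut.conj g).toMonoidHom ≤ pairGroup D := by
    rw [pairGroup, MonoidHom.map_closure, Subgroup.closure_le]
    rintro _ ⟨u, hu, rfl⟩
    exact Subgroup.subset_closure (pairs_conj S g hu)
  exact this ⟨n, hn, rfl⟩

theorem pairGroup_le (S : Setting D) : pairGroup D ≤ sideKernel S :=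
  (Subgroup.closure_le _).2 (pairs_le_sideKernel S)

theorem cube_of_pairs (S : Setting D) {u : G} (hu : u ∈ pairs D) : u ^ 3 = 1 := by
  obtain ⟨x, hx, y, hy, hne, hP, rfl⟩ := hu
  exact cube_of_not_commute S.set hx hy (pair_noncommute hy hne hP)

theorem perm_small_commute : ∀ n : ℕ, n ≤ 3 → ∀ a b : Equiv.Perm (Fin n), a ^ 3 = 1 → b ^ 3 = 1 →
    a * b = b * a := by
  intro n hn
  interval_cases n <;> decide

/-- Two products act commutingly on each side. -/
theorem pairs_commute_on (S : Setting D) {s t z : G} (hs : s ∈ pairs D) (ht : t ∈ pairs D) (hz : z ∈ D) :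
    (s * t) * z * (s * t)⁻¹ = (t * s) * z * (t * s)⁻¹ := by
  classical
  obtain ⟨q, hq, -⟩ := (exists_triple S hz).2
  let W := {w : G // w ∈ D ∧ P D w = P D z}
  have hW : ∀ w : W, w.1 ∈ P D q := fun w => symm_mem w.2.1 (by rw [w.2.2]; exact hq)
  obtain ⟨a, ha, b, hb, hab⟩ := (exists_triple S hq.1).2
  have hfin : (P D q).Finite := by
    rw [triple_eq S hq.1 ha hb hab]; exact Set.toFinite _
  haveI : Finite (P D q) := hfin.to_subtype
  let inj : W → P D q := fun w => ⟨w.1, hW w⟩
  have hinj : Function.Injective inj := fun v w e => Subtype.ext (congrArg (fun p : P D q => p.1) e)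
  haveI : Finite W := Finite.of_injective inj hinj
  have hcard : Nat.card W ≤ 3 := by
    refine (Nat.card_le_card_of_injective inj hinj).trans ?_
    have h := exists_triple S hq.1
    obtain ⟨-, h1, h2, h3⟩ := h.1 a ha b hb hab
    rw [Nat.card_coe_set_eq, h3, Set.ncard_eq_three.2 ⟨a, b, _, hab, h1.symm, h2.symm, rfl⟩]
  let act : ∀ g : G, g ∈ sideKernel S → Equiv.Perm W := fun g hg =>
    { toFun := fun w => ⟨g * w.1 * g⁻¹, S.closed g _ w.2.1, (hg _ w.2.1).trans w.2.2⟩
      invFun := fun w => ⟨g⁻¹ * w.1 * g, by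
          have := S.closed g⁻¹ _ w.2.1
          rwa [inv_inv] at this, by
          have := (sideKernel S).inv_mem hg _ w.2.1
          rw [inv_inv] at this
          exact this.trans w.2.2⟩
      left_inv := fun w => Subtype.ext (by group)
      right_inv := fun w => Subtype.ext (by group) }
  have hpow : ∀ g (hg : g ∈ sideKernel S), g ^ 3 = 1 → act g hg ^ 3 = 1 := by
    intro g hg h3
    refine Equiv.ext fun w => Subtype.ext ?_
    have : g * (g * (g * w.1 * g⁻¹) * g⁻¹) * g⁻¹ = w.1 := by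
      calc g * (g * (g * w.1 * g⁻¹) * g⁻¹) * g⁻¹ = g ^ 3 * w.1 * (g ^ 3)⁻¹ := by simp [pow_succ, mul_assoc]
        _ = w.1 := by rw [h3]; simp
    simpa [pow_succ, act] using this
  let e := Finite.equivFinOfCardEq (α := W) rfl
  have hs' := pairs_le_sideKernel S hs
  have ht' := pairs_le_sideKernel S ht
  have hpc : ∀ σ : Equiv.Perm W, σ ^ 3 = 1 → e.permCongr σ ^ 3 = 1 := by
    intro σ hσ
    refine Equiv.ext fun i => ?_
    have h1 := congrArg (fun p : Equiv.Perm W => p (e.symm i)) hσ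
    simp [pow_succ] at h1 ⊢
    rw [h1, Equiv.apply_symm_apply]
  have h := perm_small_commute _ hcard (e.permCongr (act s hs')) (e.permCongr (act t ht'))
    (hpc _ (hpow s hs' (cube_of_pairs S hs))) (hpc _ (hpow t ht' (cube_of_pairs S ht)))
  have h2 := congrArg (fun p : Equiv.Perm (Fin (Nat.card W)) => (e.symm (p (e ⟨z, hz, rfl⟩))).1) h
  simp [act] at h2
  simpa [mul_assoc] using h2

theorem commutator_fixes (S : Setting D) {x y : G} (hx : x ∈ pairGroup D) (hy : y ∈ pairGroup D) :
    ∀ z ∈ D, (x * y) * z * (x * y)⁻¹ = (y * x) * z * (y * x)⁻¹ := by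
  induction hx, hy using Subgroup.closure_induction₂ with
  | mem s t hs ht => exact fun z hz => pairs_commute_on S hs ht hz
  | one_left x _ => intro z _; simp
  | one_right x _ => intro z _; simp
  | mul_left x1 x2 y _ _ _ h1 h2 =>
    intro z hz
    calc x1 * x2 * y * z * (x1 * x2 * y)⁻¹ = x1 * (x2 * y * z * (x2 * y)⁻¹) * x1⁻¹ := by group
      _ = x1 * (y * x2 * z * (y * x2)⁻¹) * x1⁻¹ := by rw [h2 z hz]
      _ = x1 * y * (x2 * z * x2⁻¹) * (x1 * y)⁻¹ := by group
      _ = y * x1 * (x2 * z * x2⁻¹) * (y * x1)⁻¹ := h1 _ (S.closed x2 z hz)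
      _ = y * (x1 * x2) * z * (y * (x1 * x2))⁻¹ := by group
  | mul_right y1 y2 x _ _ _ h1 h2 =>
    intro z hz
    calc x * (y1 * y2) * z * (x * (y1 * y2))⁻¹ = x * y1 * (y2 * z * y2⁻¹) * (x * y1)⁻¹ := by group
      _ = y1 * x * (y2 * z * y2⁻¹) * (y1 * x)⁻¹ := h1 _ (S.closed y2 z hz)
      _ = y1 * (x * y2 * z * (x * y2)⁻¹) * y1⁻¹ := by group
      _ = y1 * (y2 * x * z * (y2 * x)⁻¹) * y1⁻¹ := by rw [h2 z hz]
      _ = y1 * y2 * x * z * (y1 * y2 * x)⁻¹ := by group
  | inv_left x y _ _ h =>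
    intro z hz
    have := h (x⁻¹ * z * x⁻¹⁻¹) (S.closed x⁻¹ z hz)
    have h3 := congrArg (fun w => x⁻¹ * w * x⁻¹⁻¹) this
    group at h3 ⊢
    exact h3.symm
  | inv_right x y _ _ h =>
    intro z hz
    have := h (y⁻¹ * z * y⁻¹⁻¹) (S.closed y⁻¹ z hz)
    have h3 := congrArg (fun w => y⁻¹ * w * y⁻¹⁻¹) this
    group at h3 ⊢
    exact h3.symm

theorem pairGroup_le_closure (D : Set G) : pairGroup D ≤ Subgroup.closure D := by
  rw [pairGroup, Subgroup.closure_le]
  rintro _ ⟨x, hx, y, hy, -, -, rfl⟩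
  exact mul_mem (Subgroup.subset_closure hx) (Subgroup.subset_closure hy)

theorem cube_mul {x y c : G} (hx : x ^ 3 = 1) (hy : y ^ 3 = 1) (hcx : Commute c x) (hcy : Commute c y)
    (h : x * y = y * x * c) : (x * y) ^ 3 = 1 := by
  have e : x * y * x⁻¹ = y * c := by
    rw [h, show y * x * c * x⁻¹ = y * (x * c * x⁻¹) by group, ← hcx.eq, mul_inv_cancel_right]
  have hc : c ^ 3 = 1 := by
    have h1 : (x * y * x⁻¹) ^ 3 = 1 := by rw [conj_pow, hy]; simp
    rwa [e, (hcy.symm).mul_pow, hy, one_mul] at h1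
  have m : ∀ w, y * (x * w) = x * (y * (c⁻¹ * w)) := by
    intro w
    rw [← mul_assoc, ← mul_assoc x, h, ← mul_assoc, mul_inv_cancel_right]
  have hcx' : ∀ w, c⁻¹ * (x * w) = x * (c⁻¹ * w) := fun w => by
    rw [← mul_assoc, hcx.inv_left.eq, mul_assoc]
  have hcy' : ∀ w, c⁻¹ * (y * w) = y * (c⁻¹ * w) := fun w => by
    rw [← mul_assoc, hcy.inv_left.eq, mul_assoc]
  have : (x * y) ^ 3 = x * x * x * (y * y * y) * (c⁻¹ * c⁻¹ * c⁻¹) := by
    simp only [pow_succ, pow_zero, one_mul, mul_assoc, m, hcx', hcy', hcy.inv_left.eq]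
  rw [this]
  simp only [pow_succ, pow_zero, one_mul] at hx hy hc
  rw [hx, hy, ← mul_inv_rev, ← mul_inv_rev, show c * (c * c) = 1 by rw [← mul_assoc, hc]]
  simp

theorem pairGroup_cube (S : Setting D) {x : G} (hx : x ∈ pairGroup D) : x ^ 3 = 1 := by
  refine Subgroup.closure_induction (p := fun g _ => g ^ 3 = 1) ?_ ?_ ?_ ?_ hx
  · exact fun u hu => cube_of_pairs S hu
  · simp
  · intro a b ha hb h1 h2
    set c := (b * a)⁻¹ * (a * b) with hc
    have hcD : ∀ z ∈ D, Commute c z := by
      intro z hz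
      have h := commutator_fixes S ha hb z hz
      have h' := congrArg (fun w => (b * a)⁻¹ * w * (b * a)) h
      have e : c * z * c⁻¹ = z := by
        rw [hc]
        group at h' ⊢
        exact h'
      exact mul_inv_eq_iff_eq_mul.1 e
    have hcl : ∀ g ∈ Subgroup.closure D, Commute c g := fun g hg => by
      have hle : Subgroup.closure D ≤ Subgroup.centralizer {c} := (Subgroup.closure_le _).2 fun z hz =>
        Subgroup.mem_centralizer_singleton_iff.2 (hcD z hz).eq.symm
      exact (Subgroup.mem_centralizer_singleton_iff.1 (hle hg)).symm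
    exact cube_mul h1 h2 (hcl a (pairGroup_le_closure D ha)) (hcl b (pairGroup_le_closure D hb))
      (by rw [hc, mul_inv_cancel_left])
  · intro a _ h; rw [inv_pow, h, inv_one]

theorem pow_three_mod {u : G} (hu : u ^ 3 = 1) (n : ℕ) : u ^ n = u ^ (n % 3) := pow_eq_pow_mod n hu

theorem commute_of_pow {u g : G} (hu : u ^ 3 = 1) {i : ℕ} (hi : i % 3 ≠ 0) (h : Commute (u ^ i) g) :
    Commute u g := by
  rw [pow_three_mod hu] at h
  rcases (show i % 3 = 1 ∨ i % 3 = 2 by omega) with e | e <;> rw [e] at h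
  · rwa [pow_one] at h
  · have h2 := h.mul_left h
    rwa [← pow_add, pow_three_mod hu, show (2 + 2) % 3 = 1 from rfl, pow_one] at h2

/-- The core hypothesis, and its use. -/
theorem mem_zpowers_of_fix [Finite G] (S : Setting D)
    (hcore : ∀ d ∈ D, Nat.card (Cfsg.pCore 3 ↥(Subgroup.centralizer ({d} : Set G))) = 3)
    {d a b : G} (hd : d ∈ D) (ha : a ∈ P D d) (hb : b ∈ P D d) (hab : a ≠ b) (hP : P D a = P D b)
    {t : G} (ht : t ∈ pairGroup D) (htd : Commute t d) : ∃ i < 3, t = (a * b) ^ i := by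
  classical
  haveI : Fact (Nat.Prime 3) := ⟨Nat.prime_three⟩
  set C := Subgroup.centralizer ({d} : Set G)
  let N := (pairGroup D).subgroupOf C
  have hN : N.Normal := (pairGroup_normal S).subgroupOf C
  have hp : IsPGroup 3 N := by
    intro x
    exact ⟨1, Subtype.ext (Subtype.ext (by simpa using pairGroup_cube S x.2))⟩
  have hle : N ≤ Cfsg.pCore 3 C := le_sSup ⟨hN, hp⟩
  have huT : a * b ∈ pairGroup D := Subgroup.subset_closure ⟨a, ha.1, b, hb.1, hab, hP, rfl⟩
  have huC : a * b ∈ C := Subgroup.mem_centralizer_singleton_iff.2 (ha.2.2.mul_right hb.2.2).eq.symm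
  have htC : t ∈ C := Subgroup.mem_centralizer_singleton_iff.2 htd.eq
  let u' : C := ⟨a * b, huC⟩
  let t' : C := ⟨t, htC⟩
  have hu1 : u' ≠ 1 := fun e => hab (by
    have e' : a * b = 1 := congrArg Subtype.val e
    rw [← inv_eq_of_mul_eq_one_right e', S.inv ha.1])
  have ho : orderOf u' = 3 := orderOf_eq_prime
    (Subtype.ext (by simpa using cube_of_pairs S ⟨a, ha.1, b, hb.1, hab, hP, rfl⟩)) hu1
  have heq : Subgroup.zpowers u' = Cfsg.pCore 3 C := by
    refine Subgroup.eq_of_le_of_card_ge (Subgroup.zpowers_le.2 (hle (Subgroup.mem_subgroupOf.2 huT))) ?_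
    rw [Nat.card_zpowers, ho, hcore d hd]
  have hmem : t' ∈ Subgroup.zpowers u' := heq ▸ hle (Subgroup.mem_subgroupOf.2 ht)
  rw [← mem_powers_iff_mem_zpowers] at hmem
  obtain ⟨i, hi⟩ := hmem
  refine ⟨i % 3, Nat.mod_lt _ (by norm_num), ?_⟩
  have : (a * b) ^ i = t := congrArg Subtype.val hi
  rw [← this, pow_three_mod (cube_of_pairs S ⟨a, ha.1, b, hb.1, hab, hP, rfl⟩)]

theorem four_cycle (S : Setting D) {d a b h : G} (hd : d ∈ D) (ha : a ∈ P D d) (hb : b ∈ P D d) (hab : a ≠ b)
    (hha : h ∈ P D a) (hhb : h ∈ P D b) (hhd : h ≠ d) :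
    P D a = P D b ∧ P D d = P D h ∧ (∀ x ∈ P D d, P D x = P D a) ∧ (∀ y ∈ P D a, P D y = P D d) := by
  have e1 : ∀ {d a b h : G}, d ∈ D → a ∈ P D d → b ∈ P D d → h ∈ P D a → h ∈ P D b → h ≠ d →
      P D a = P D b := fun hd ha hb hha hhb hhd => by
    rw [triple_eq S ha.1 (symm_mem hd ha) hha hhd.symm, triple_eq S hb.1 (symm_mem hd hb) hhb hhd.symm]
  have hPab := e1 hd ha hb hha hhb hhd
  have hPdh : P D d = P D h := e1 ha.1 (symm_mem hd ha) hha hb (symm_mem hb.1 hhb) hab.symm
  refine ⟨hPab, hPdh, fun x hx => ?_, fun y hy => ?_⟩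
  · rcases eq_or_ne x a with rfl | hxa
    · rfl
    · exact e1 hd hx ha (symm_mem hha.1 ((Set.ext_iff.1 hPdh x).1 hx)) hha hhd
  · rcases eq_or_ne y d with rfl | hyd
    · rfl
    · exact e1 ha.1 hy (symm_mem hd ha) (symm_mem hb.1 ((Set.ext_iff.1 hPab y).1 hy)) hb hab.symm

/-- No member lies outside the grid. -/
theorem grid_all [Finite G] (S : Setting D)
    (hcore : ∀ d ∈ D, Nat.card (Cfsg.pCore 3 ↥(Subgroup.centralizer ({d} : Set G))) = 3)
    {d a b h : G} (hd : d ∈ D) (ha : a ∈ P D d) (hb : b ∈ P D d) (hab : a ≠ b)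
    (hha : h ∈ P D a) (hhb : h ∈ P D b) (hhd : h ≠ d) {e : G} (he : e ∈ D) : e ∈ P D d ∪ P D a := by
  obtain ⟨hPab, hPdh, hside1, hside2⟩ := four_cycle S hd ha hb hab hha hhb hhd
  by_contra hout
  rw [Set.mem_union, not_or] at hout
  set u := a * b with hu
  set v := d * h with hv
  have hdh : d ≠ h := hhd.symm
  have hh := hha.1
  have hdPa : d ∈ P D a := symm_mem hd ha
  have haPh : a ∈ P D h := symm_mem ha.1 hha
  have hbPh : b ∈ P D h := symm_mem hb.1 hhb
  have huS : u ∈ pairs D := ⟨a, ha.1, b, hb.1, hab, hPab, rfl⟩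
  have hvS : v ∈ pairs D := ⟨d, hd, h, hh, hdh, hPdh, rfl⟩
  have hu3 := cube_of_pairs S huS
  have hv3 := cube_of_pairs S hvS
  have hud : Commute u d := (ha.2.2.mul_right hb.2.2).symm
  have huv : Commute u v := hud.mul_right (haPh.2.2.mul_right hbPh.2.2).symm
  have hva : Commute v a := (hdPa.2.2.mul_right hha.2.2).symm
  have ndh : ¬ Commute d h := pair_noncommute hh hdh hPdh
  have hsq : d * h * (d * h) = h * d := by
    rw [← mul_assoc, braid S.set hd hh ndh]
    simp only [mul_assoc, S.sq hh, mul_one]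
  -- every element of the pair group is a word in `u` and `v`
  have hword : ∀ t ∈ pairGroup D, ∃ i j, i < 3 ∧ j < 3 ∧ t = u ^ i * v ^ j := by
    intro t ht
    have h1 := pairGroup_le S ht d hd
    have h2 : t * d * t⁻¹ ∈ P D a := by
      have : a ∈ P D (t * d * t⁻¹) := by rw [h1]; exact ha
      exact symm_mem (S.closed t d hd) this
    rw [triple_eq S ha.1 hdPa hha hdh] at h2
    obtain ⟨j, hj, hjd⟩ : ∃ j < 3, v ^ j * d * (v ^ j)⁻¹ = t * d * t⁻¹ := by
      rcases h2 with e | e | e
      · exact ⟨0, by norm_num, by simp [e]⟩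
      · refine ⟨1, by norm_num, ?_⟩
        rw [e, pow_one, hv, mul_inv_rev, S.inv hd, S.inv hh, show d * h * d * (h * d) = (d * h * d) * h * d by
          simp only [mul_assoc], braid S.set hd hh ndh]
        simp only [mul_assoc, S.sq_assoc hh, S.sq hd, mul_one]
      · refine ⟨2, by norm_num, ?_⟩
        rw [e, pow_two, hv, hsq, mul_inv_rev, S.inv hd, S.inv hh]
        simp only [mul_assoc, S.sq_assoc hd]
        rw [← mul_assoc, ← mul_assoc, braid S.set hd hh ndh]
    have h4 : Commute ((v ^ j)⁻¹ * t) d := by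
      have h5 : (v ^ j)⁻¹ * t * d * ((v ^ j)⁻¹ * t)⁻¹ = d := by
        calc (v ^ j)⁻¹ * t * d * ((v ^ j)⁻¹ * t)⁻¹ = (v ^ j)⁻¹ * (t * d * t⁻¹) * v ^ j := by group
          _ = d := by rw [← hjd]; group
      exact mul_inv_eq_iff_eq_mul.1 h5
    obtain ⟨i, hi, hit⟩ := mem_zpowers_of_fix S hcore hd ha hb hab hPab
      (mul_mem (inv_mem (pow_mem (Subgroup.subset_closure hvS) j)) ht) h4
    refine ⟨i, j, hi, hj, ?_⟩
    rw [(huv.pow_pow i j).eq, hu, ← hit, mul_inv_cancel_left]
  -- every outer member is moved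
  have houter : ∀ g ∈ D, g ∉ P D d → g ∉ P D a → ¬ Commute u g ∧ ¬ Commute v g := by
    intro g hg hg1 hg2
    have hnc : ∀ x, (x ∈ P D d ∧ P D x = P D a ∨ x ∈ P D a ∧ P D x = P D d) → ¬ Commute x g := by
      intro x hx hc
      rcases hx with ⟨hx, hPx⟩ | ⟨hx, hPx⟩
      · rcases eq_or_ne g x with rfl | hgx
        · exact hg1 hx
        · exact hg2 (hPx ▸ (⟨hg, hgx, hc⟩ : g ∈ P D x))
      · rcases eq_or_ne g x with rfl | hgx
        · exact hg2 hx
        · exact hg1 (hPx ▸ (⟨hg, hgx, hc⟩ : g ∈ P D x))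
    have key : ∀ x y, x ∈ D → y ∈ D → x ≠ y → ¬ Commute x g → ¬ Commute y g → ¬ Commute (x * y) g := by
      intro x y hx hy hxy h1 h2 hc
      refine conj_ne S hg hx hy (fun h' => h1 h'.symm) (fun h' => h2 h'.symm) hxy ?_
      calc x * g * x = x * (g * (x * y)) * y := by
            simp only [mul_assoc, S.sq hy, mul_one]
        _ = x * (x * y * g) * y := by rw [hc.eq]
        _ = y * g * y := by simp only [mul_assoc, S.sq_assoc hx]
    exact ⟨key a b ha.1 hb.1 hab (hnc a (Or.inl ⟨ha, rfl⟩)) (hnc b (Or.inl ⟨hb, hPab.symm⟩)),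
      key d h hd hh hdh (hnc d (Or.inr ⟨hdPa, rfl⟩)) (hnc h (Or.inr ⟨hha, hPdh.symm⟩))⟩
  -- the images of `e` on both lines are outside
  have himg : ∀ x, (x = d ∨ x = a) → e * x * e ∉ P D d ∧ e * x * e ∉ P D a := by
    intro x hx
    have hxD : x ∈ D := by rcases hx with rfl | rfl; exacts [hd, ha.1]
    have hxe : ¬ Commute e x := by
      intro hc
      rcases hx with rfl | rfl
      · rcases eq_or_ne e x with rfl | hne
        · exact hout.2 hdPa
        · exact hout.1 ⟨he, hne, hc.symm⟩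
      · rcases eq_or_ne e x with rfl | hne
        · exact hout.1 ha
        · exact hout.2 ⟨he, hne, hc.symm⟩
    rw [braid S.set he hxD hxe]
    have back : ∀ Y, (∀ y ∈ P D Y, x * y * x ∈ P D Y) → e ∉ P D Y → x * e * x ∉ P D Y := by
      intro Y hY hn hc
      have := hY _ hc
      simp only [mul_assoc, S.sq_assoc hxD, S.sq hxD, mul_one] at this
      exact hn this
    have stab : ∀ Y, x * Y * x⁻¹ = Y → ∀ y ∈ P D Y, x * y * x ∈ P D Y := by
      intro Y hY y hy
      have := P_conj_fix S hY hy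
      rwa [S.inv hxD] at this
    have hfd : x * d * x⁻¹ = d := by
      rcases hx with rfl | rfl
      · simp
      · rw [← ha.2.2.eq, mul_inv_cancel_right]
    have hfa : x * a * x⁻¹ = a := by
      rcases hx with rfl | rfl
      · rw [ha.2.2.eq, mul_inv_cancel_right]
      · simp
    exact ⟨back d (stab d hfd) hout.1, back a (stab a hfa) hout.2⟩
  have hee : ∀ g, e * (e * g * e) * e = g := fun g => by
    simp only [mul_assoc, S.sq_assoc he, S.sq he, mul_one]
  have hwordc : ∀ s, s ∈ pairs D → ∃ i j, i < 3 ∧ j < 3 ∧ e * s * e = u ^ i * v ^ j := by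
    intro s hs
    apply hword
    have := (pairGroup_normal S).conj_mem _ (Subgroup.subset_closure hs) e
    rwa [S.inv he] at this
  have hcc : ∀ {s x : G}, Commute s x → Commute (e * s * e) (e * x * e) := fun {s x} h => by
    have := (commute_conj_iff (g := e)).2 h
    rwa [S.inv he] at this
  obtain ⟨i, j, hi, hj, hij⟩ := hwordc u huS
  obtain ⟨k, l, hk, hl, hkl⟩ := hwordc v hvS
  obtain ⟨g1, g2⟩ := himg d (Or.inl rfl)
  obtain ⟨f1, f2⟩ := himg a (Or.inr rfl)
  obtain ⟨og1, og2⟩ := houter _ (S.conj_mem he hd) g1 g2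
  obtain ⟨of1, of2⟩ := houter _ (S.conj_mem he ha.1) f1 f2
  have hune : u ≠ 1 := fun e' => og1 (e' ▸ Commute.one_left _)
  have hvne : v ≠ 1 := fun e' => og2 (e' ▸ Commute.one_left _)
  have cu : Commute (u ^ i * v ^ j) (e * d * e) := hij ▸ hcc hud
  have cv : Commute (u ^ k * v ^ l) (e * a * e) := hkl ▸ hcc hva
  have hj0 : j % 3 ≠ 0 := by
    intro h0
    have hj' : j = 0 := by omega
    subst hj'
    rw [pow_zero, mul_one] at cu
    rcases Nat.eq_zero_or_pos i with rfl | hi'
    · apply hune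
      rw [← hee u, hij]
      simp [S.sq he]
    · exact og1 (commute_of_pow hu3 (by omega) cu)
  have hk0 : k % 3 ≠ 0 := by
    intro h0
    have hk' : k = 0 := by omega
    subst hk'
    rw [pow_zero, one_mul] at cv
    rcases Nat.eq_zero_or_pos l with rfl | hl'
    · apply hvne
      rw [← hee v, hkl]
      simp [S.sq he]
    · exact of2 (commute_of_pow hv3 (by omega) cv)
  have hi0 : i % 3 ≠ 0 := by
    intro h0
    have hi' : i = 0 := by omega
    subst hi'
    rw [pow_zero, one_mul] at cu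
    exact og2 (commute_of_pow hv3 hj0 cu)
  -- apply `e` twice
  have hpow : ∀ s (n : ℕ), e * s ^ n * e = (e * s * e) ^ n := fun s n => by
    have := map_pow (MulAut.conj e) s n
    simpa [MulAut.conj_apply, S.inv he] using this
  have hmain : u = u ^ (i * i + k * j) * v ^ (j * i + l * j) := by
    conv_lhs => rw [← hee u, hij, show e * (u ^ i * v ^ j) * e = (e * u ^ i * e) * (e * v ^ j * e) by
      simp only [mul_assoc, S.sq_assoc he]]
    rw [hpow, hpow, hij, hkl, (huv.pow_pow i j).mul_pow, (huv.pow_pow k l).mul_pow, ← pow_mul, ← pow_mul,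
      ← pow_mul, ← pow_mul]
    calc u ^ (i * i) * v ^ (j * i) * (u ^ (k * j) * v ^ (l * j))
        = u ^ (i * i) * (v ^ (j * i) * u ^ (k * j)) * v ^ (l * j) := by simp only [mul_assoc]
      _ = u ^ (i * i) * (u ^ (k * j) * v ^ (j * i)) * v ^ (l * j) := by rw [(huv.pow_pow _ _).symm.eq]
      _ = _ := by rw [pow_add, pow_add]; simp only [mul_assoc]
  have hv0 : (j * i + l * j) % 3 = 0 := by
    by_contra hne'
    have hc : Commute (v ^ (j * i + l * j)) d := by
      have e' : v ^ (j * i + l * j) = (u ^ (i * i + k * j))⁻¹ * u := by rw [eq_inv_mul_iff_mul_eq, ← hmain]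
      rw [e']
      exact ((hud.pow_left _).inv_left).mul_left hud
    have hc' := commute_of_pow hv3 hne' hc
    apply ndh
    have h6 : d * h * d = d * (d * h) := hc'.eq
    rw [S.sq_assoc hd] at h6
    calc d * h = d * h * (d * d) := by rw [S.sq hd, mul_one]
      _ = h * d := by rw [← mul_assoc, h6]
  rw [pow_three_mod hv3 (j * i + l * j), hv0, pow_zero, mul_one] at hmain
  have ho : orderOf u = 3 := by
    haveI : Fact (Nat.Prime 3) := ⟨Nat.prime_three⟩
    exact orderOf_eq_prime hu3 hune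
  have hmod : (i * i + k * j) % 3 = 1 := by
    have h7 : u ^ (i * i + k * j) = u ^ 1 := by rw [pow_one]; exact hmain.symm
    rw [pow_inj_mod, ho] at h7
    exact h7
  interval_cases i <;> interval_cases j <;> interval_cases k <;> omega

theorem nonempty_grid [Finite G] (S : Setting D)
    (hcore : ∀ d ∈ D, Nat.card (Cfsg.pCore 3 ↥(Subgroup.centralizer ({d} : Set G))) = 3)
    {d a b h : G} (hd : d ∈ D) (ha : a ∈ P D d) (hb : b ∈ P D d) (hab : a ≠ b)
    (hha : h ∈ P D a) (hhb : h ∈ P D b) (hhd : h ≠ d) :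
    Nonempty (↥(Subgroup.closure D) ≃* Equiv.Perm (Fin 3) × Equiv.Perm (Fin 3)) := by
  obtain ⟨-, -, hside1, -⟩ := four_cycle S hd ha hb hab hha hhb hhd
  set H1 := Subgroup.closure (P D d)
  set H2 := Subgroup.closure (P D a)
  have hc : ∀ x ∈ H1, ∀ y ∈ H2, Commute x y := by
    intro x hx y hy
    have hle : H2 ≤ Subgroup.centralizer (H1 : Set G) := by
      rw [Subgroup.centralizer_closure]
      rw [Subgroup.closure_le]
      intro z hz
      refine Subgroup.mem_centralizer_iff.2 fun w hw => ?_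
      have : z ∈ P D w := by rw [hside1 w hw]; exact hz
      exact this.2.2.eq
    exact Subgroup.mem_centralizer_iff.1 (hle hy) x hx
  obtain ⟨φ1⟩ := S.loc d hd
  obtain ⟨φ2⟩ := S.loc a ha.1
  have hdisj : Disjoint H1.subtype.range H2.subtype.range := by
    rw [Subgroup.range_subtype, Subgroup.range_subtype, disjoint_iff, Subgroup.eq_bot_iff_forall]
    rintro x ⟨hx1, hx2⟩
    have hz : ∀ w : Equiv.Perm (Fin 3), φ1 ⟨x, hx1⟩ * w = w * φ1 ⟨x, hx1⟩ := by
      intro w
      obtain ⟨y, rfl⟩ := φ1.surjective w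
      rw [← map_mul, ← map_mul]
      exact congrArg φ1 (Subtype.ext (hc y y.2 x hx2).eq.symm)
    have h1 := (by decide : ∀ p : Equiv.Perm (Fin 3),
      (p * Equiv.swap 0 1 = Equiv.swap 0 1 * p ∧ p * Equiv.swap 1 2 = Equiv.swap 1 2 * p) → p = 1) _
      ⟨hz _, hz _⟩
    exact congrArg Subtype.val (φ1.injective (h1.trans φ1.map_one.symm))
  have hcomm : ∀ (x : H1) (y : H2), Commute (H1.subtype x) (H2.subtype y) := fun x y => hc x x.2 y y.2
  let Φ : H1 × H2 →* G := MonoidHom.noncommCoprod H1.subtype H2.subtype hcomm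
  have hinj : Function.Injective Φ :=
    (MonoidHom.noncommCoprod_injective _ _ _).2 ⟨H1.subtype_injective, H2.subtype_injective, hdisj⟩
  have hrange : Φ.range = Subgroup.closure D := by
    rw [show Φ.range = H1.subtype.range ⊔ H2.subtype.range from MonoidHom.noncommCoprod_range _ _ hcomm, Subgroup.range_subtype, Subgroup.range_subtype]
    refine le_antisymm (sup_le (Subgroup.closure_mono fun x hx => hx.1) (Subgroup.closure_mono fun x hx => hx.1)) ?_
    rw [Subgroup.closure_le]
    intro e he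
    rcases grid_all S hcore hd ha hb hab hha hhb hhd he with h' | h'
    · exact Subgroup.mem_sup_left (Subgroup.subset_closure h')
    · exact Subgroup.mem_sup_right (Subgroup.subset_closure h')
  exact ⟨((MonoidHom.ofInjective hinj).trans (MulEquiv.subgroupCongr hrange)).symm.trans (φ1.prodCongr φ2)⟩

end CfsgLib.LocalSymThree
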